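import Mathlib
import Cfsg.Agent.Lib.Helper73.HA.Defs

/-!
# Project HA (S2538, S2535), package [CONJS] (helper13)

Conjugacy of the Hall subgroups of `Sym(Ω)` from their structure.
-/

set_option autoImplicit false

universe u

namespace Cfsg.Agent.Lib.Helper13.HA

open Equiv

/-- A permutation carrying a finite set onto another one of the same cardinality. -/
theorem exists_perm_mem_iff {Ω : Type u} [Fintype Ω] [DecidableEq Ω] (s₁ s₂ : Finset Ω)
    (h : s₁.card = s₂.card) : ∃ g : Perm Ω, ∀ x, g x ∈ s₂ ↔ x ∈ s₁ := by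
  let e : {x // x ∈ s₁} ≃ {x // x ∈ s₂} := Finset.equivOfCardEq h
  refine ⟨e.extendSubtype, fun x => ?_⟩
  constructor
  · intro hx
    by_contra hx1
    exact e.extendSubtype_not_mem x hx1 hx
  · intro hx
    exact e.extendSubtype_mem x hx

/-- Conjugating a subgroup described by a predicate. -/
theorem eq_map_conj_of_iff {G : Type u} [Group G] (H₁ H₂ : Subgroup G) (g : G)
    (h : ∀ x : G, x ∈ H₂ ↔ g⁻¹ * x * g ∈ H₁) :
    H₂ = H₁.map (MulAut.conj g).toMonoidHom := by
  ext x
  rw [h x, Subgroup.mem_map_equiv]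
  simp [MulAut.conj_symm_apply]

theorem conjS_of (hS : Cfsg.Agent.Lib.Helper73.HA.HallStruct.{u})
    (hSyl : Cfsg.Agent.Lib.Helper73.HA.LemSylConj.{u}) :
    Cfsg.Agent.Lib.Helper73.HA.ConjS.{u} := by
  intro Ω _ _ π H₁ H₂ h1 h2
  have hcard : Nat.card (Perm Ω) = (Fintype.card Ω).factorial := by
    rw [Nat.card_eq_fintype_card, Fintype.card_perm]
  by_cases c1 : ∀ r s : ℕ, r.Prime → s.Prime → r ∈ π → s ∈ π → r ≤ Fintype.card Ω →
      s ≤ Fintype.card Ω → r = s
  · apply hSyl (Perm Ω) π H₁ H₂ h1 h2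
    intro r s hr hs hrπ hsπ hrd hsd
    rw [hcard] at hrd hsd
    exact c1 r s hr hs hrπ hsπ (hr.dvd_factorial.1 hrd) (hs.dvd_factorial.1 hsd)
  by_cases c2 : ∀ r : ℕ, r.Prime → r ≤ Fintype.card Ω → r ∈ π
  · have top : ∀ H : Subgroup (Perm Ω), Cfsg.IsPiHall π H → H = ⊤ := by
      intro H hH
      by_contra hne
      have hidx : H.index ≠ 1 := fun h => hne (Subgroup.index_eq_one.1 h)
      obtain ⟨p, hp, hpd⟩ := Nat.exists_prime_and_dvd hidx
      have hpn : p ∣ (Fintype.card Ω).factorial := by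
        rw [← hcard]
        exact dvd_trans hpd (Subgroup.index_dvd_card H)
      exact hH.2 p hp (c2 p hp (hp.dvd_factorial.1 hpn)) hpd
    refine ⟨1, ?_⟩
    rw [top H₁ h1, top H₂ h2]
    apply eq_map_conj_of_iff
    intro x
    simp
  have s1 := hS Ω π H₁ h1
  have s2 := hS Ω π H₂ h2
  rcases s1 with s1 | s1 | ⟨hn1, hπ1, ω₁, hω₁⟩ | ⟨hn1, hπ1, t₁, ht₁, hH₁⟩ | ⟨hn1, hπ1, t₁, ht₁, hH₁⟩
  · exact absurd s1 c1
  · exact absurd s1 c2
  · -- point stabilizers
    rcases s2 with s2 | s2 | ⟨hn2, hπ2, ω₂, hω₂⟩ | ⟨hn2, hπ2, t₂, ht₂, hH₂⟩ |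
      ⟨hn2, hπ2, t₂, ht₂, hH₂⟩
    · exact absurd s2 c1
    · exact absurd s2 c2
    · refine ⟨swap ω₁ ω₂, ?_⟩
      apply eq_map_conj_of_iff
      intro x
      rw [hω₁, hω₂]
      simp only [Perm.mul_apply, swap_apply_left, swap_inv]
      constructor
      · intro h
        rw [h, swap_apply_right]
      · intro h
        have := congrArg (swap ω₁ ω₂) h
        rwa [swap_apply_self, swap_apply_left] at this
    · exfalso
      have e1 := hπ1 5 (by norm_num) (by rw [hn2]; norm_num)
      have e2 := hπ2 5 (by norm_num) (by norm_num)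
      rw [hn2] at e1
      have : (5 : ℕ) ∈ π := e1.2 (by norm_num)
      have := e2.1 this
      omega
    · exfalso
      rw [hn2] at hn1
      exact absurd hn1 (by norm_num)
  · -- stabilizers of a 4-set, degree 7
    rcases s2 with s2 | s2 | ⟨hn2, hπ2, ω₂, hω₂⟩ | ⟨hn2, hπ2, t₂, ht₂, hH₂⟩ |
      ⟨hn2, hπ2, t₂, ht₂, hH₂⟩
    · exact absurd s2 c1
    · exact absurd s2 c2
    · exfalso
      have e1 := hπ2 5 (by norm_num) (by rw [hn1]; norm_num)
      have e2 := hπ1 5 (by norm_num) (by norm_num)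
      rw [hn1] at e1
      have : (5 : ℕ) ∈ π := e1.2 (by norm_num)
      have := e2.1 this
      omega
    · obtain ⟨g, hg⟩ := exists_perm_mem_iff t₁ t₂ (by rw [ht₁, ht₂])
      refine ⟨g, ?_⟩
      apply eq_map_conj_of_iff
      intro x
      have hg' : ∀ z, g⁻¹ z ∈ t₁ ↔ z ∈ t₂ := by
        intro z
        rw [← hg (g⁻¹ z)]
        simp
      rw [hH₁, hH₂]
      simp only [Perm.mul_apply, hg']
      constructor
      · intro h y
        rw [h (g y), hg]
      · intro h z
        have := h (g⁻¹ z)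
        rw [hg'] at this
        simpa using this
    · exfalso
      omega
  · -- stabilizers of a partition into two 4-sets, degree 8
    rcases s2 with s2 | s2 | ⟨hn2, hπ2, ω₂, hω₂⟩ | ⟨hn2, hπ2, t₂, ht₂, hH₂⟩ |
      ⟨hn2, hπ2, t₂, ht₂, hH₂⟩
    · exact absurd s2 c1
    · exact absurd s2 c2
    · exfalso
      rw [hn1] at hn2
      exact absurd hn2 (by norm_num)
    · exfalso
      omega
    · obtain ⟨g, hg⟩ := exists_perm_mem_iff t₁ t₂ (by rw [ht₁, ht₂])
      refine ⟨g, ?_⟩
      apply eq_map_conj_of_iff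
      intro x
      have hg' : ∀ z, g⁻¹ z ∈ t₁ ↔ z ∈ t₂ := by
        intro z
        rw [← hg (g⁻¹ z)]
        simp
      rw [hH₁, hH₂]
      simp only [Perm.mul_apply, hg']
      constructor
      · rintro (h | h)
        · left
          intro y
          rw [h (g y), hg]
        · right
          intro y
          rw [h (g y), hg]
      · rintro (h | h)
        · left
          intro z
          have := h (g⁻¹ z)
          rw [hg'] at this
          simpa using this
        · right
          intro z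
          have := h (g⁻¹ z)
          rw [hg'] at this
          simpa using this

end Cfsg.Agent.Lib.Helper13.HA
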