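import Mathlib
import Cfsg.Agent.Lib.Helper73.HA.Defs

/-!
# Project HA (S2538, S2535), packages [S4] and [S5] (helper13)

Two 5-cycle arguments: a group of permutations without elements of order 5 which contains
all 3-cycles of suitable 4-sets.
-/

set_option autoImplicit false
set_option linter.unusedSimpArgs false
set_option linter.style.haveILetI false

universe u

namespace Cfsg.Agent.Lib.Helper13.HA

open Equiv

variable {Ω : Type u} [DecidableEq Ω]

/-- All 3-cycles on `T` lie in `K`. -/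
def Has3 (K : Subgroup (Perm Ω)) (T : Finset Ω) : Prop :=
  ∀ a b c : Ω, a ∈ T → b ∈ T → c ∈ T → a ≠ b → a ≠ c → b ≠ c → swap a b * swap b c ∈ K

theorem has3_image {K : Subgroup (Perm Ω)} {T : Finset Ω} (h : Has3 K T) {g : Perm Ω}
    (hg : g ∈ K) : Has3 K (T.image g) := by
  intro a b c ha hb hc hab hac hbc
  obtain ⟨a', ha', rfl⟩ := Finset.mem_image.1 ha
  obtain ⟨b', hb', rfl⟩ := Finset.mem_image.1 hb
  obtain ⟨c', hc', rfl⟩ := Finset.mem_image.1 hc
  have h1 := h a' b' c' ha' hb' hc' (fun e => hab (by rw [e])) (fun e => hac (by rw [e]))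
    (fun e => hbc (by rw [e]))
  have h2 : swap (g a') (g b') * swap (g b') (g c') = g * (swap a' b' * swap b' c') * g⁻¹ := by
    rw [Equiv.swap_apply_apply, Equiv.swap_apply_apply]; group
  rw [h2]
  exact K.mul_mem (K.mul_mem hg h1) (K.inv_mem hg)

theorem five_cycle_order {a b p c d : Ω} (hab : a ≠ b) (hap : a ≠ p) (hac : a ≠ c) (had : a ≠ d)
    (hbp : b ≠ p) (hbc : b ≠ c) (hbd : b ≠ d) (hpc : p ≠ c) (hpd : p ≠ d) (hcd : c ≠ d) :
    orderOf ((swap a b * swap b p) * (swap p c * swap c d)) = 5 := by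
  set σ : Perm Ω := (swap a b * swap b p) * (swap p c * swap c d) with hσ
  have ha : σ a = b := by
    simp [hσ, Perm.mul_apply, swap_apply_def, hab, hap, hac, had, hbp, hbc, hbd, hpc, hpd, hcd,
      hab.symm, hap.symm, hac.symm, had.symm, hbp.symm, hbc.symm, hbd.symm, hpc.symm, hpd.symm,
      hcd.symm]
  have hb : σ b = p := by
    simp [hσ, Perm.mul_apply, swap_apply_def, hab, hap, hac, had, hbp, hbc, hbd, hpc, hpd, hcd,
      hab.symm, hap.symm, hac.symm, had.symm, hbp.symm, hbc.symm, hbd.symm, hpc.symm, hpd.symm,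
      hcd.symm]
  have hp : σ p = c := by
    simp [hσ, Perm.mul_apply, swap_apply_def, hab, hap, hac, had, hbp, hbc, hbd, hpc, hpd, hcd,
      hab.symm, hap.symm, hac.symm, had.symm, hbp.symm, hbc.symm, hbd.symm, hpc.symm, hpd.symm,
      hcd.symm]
  have hc : σ c = d := by
    simp [hσ, Perm.mul_apply, swap_apply_def, hab, hap, hac, had, hbp, hbc, hbd, hpc, hpd, hcd,
      hab.symm, hap.symm, hac.symm, had.symm, hbp.symm, hbc.symm, hbd.symm, hpc.symm, hpd.symm,
      hcd.symm]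
  have hd : σ d = a := by
    simp [hσ, Perm.mul_apply, swap_apply_def, hab, hap, hac, had, hbp, hbc, hbd, hpc, hpd, hcd,
      hab.symm, hap.symm, hac.symm, had.symm, hbp.symm, hbc.symm, hbd.symm, hpc.symm, hpd.symm,
      hcd.symm]
  have hx : ∀ x : Ω, x ≠ a → x ≠ b → x ≠ p → x ≠ c → x ≠ d → σ x = x := by
    intro x h1 h2 h3 h4 h5
    simp [hσ, Perm.mul_apply, swap_apply_def, h1, h2, h3, h4, h5]
  have h5 : σ ^ 5 = 1 := by
    ext x
    have e : (σ ^ 5) x = σ (σ (σ (σ (σ x)))) := rfl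
    rw [e, Perm.one_apply]
    by_cases h1 : x = a
    · rw [h1, ha, hb, hp, hc, hd]
    by_cases h2 : x = b
    · rw [h2, hb, hp, hc, hd, ha]
    by_cases h3 : x = p
    · rw [h3, hp, hc, hd, ha, hb]
    by_cases h4 : x = c
    · rw [h4, hc, hd, ha, hb, hp]
    by_cases h6 : x = d
    · rw [h6, hd, ha, hb, hp, hc]
    rw [hx x h1 h2 h3 h4 h6, hx x h1 h2 h3 h4 h6, hx x h1 h2 h3 h4 h6, hx x h1 h2 h3 h4 h6,
      hx x h1 h2 h3 h4 h6]
  have hne : σ ≠ 1 := by
    intro h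
    have : σ a = a := by rw [h, Perm.one_apply]
    rw [ha] at this
    exact hab this.symm
  haveI : Fact (Nat.Prime 5) := ⟨by norm_num⟩
  exact orderOf_eq_prime h5 hne

theorem five_dvd_of_has3 [Fintype Ω] {K : Subgroup (Perm Ω)} {T₁ T₂ : Finset Ω}
    (h1 : Has3 K T₁) (h2 : Has3 K T₂) {a b p c d : Ω}
    (ha : a ∈ T₁) (hb : b ∈ T₁) (hp1 : p ∈ T₁) (hp2 : p ∈ T₂) (hc : c ∈ T₂) (hd : d ∈ T₂)
    (hab : a ≠ b) (hap : a ≠ p) (hac : a ≠ c) (had : a ≠ d)
    (hbp : b ≠ p) (hbc : b ≠ c) (hbd : b ≠ d) (hpc : p ≠ c) (hpd : p ≠ d) (hcd : c ≠ d) :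
    5 ∣ Nat.card K := by
  have e1 : swap a b * swap b p ∈ K := h1 a b p ha hb hp1 hab hap hbp
  have e2 : swap p c * swap c d ∈ K := h2 p c d hp2 hc hd hpc hpd hcd
  have h5 := five_cycle_order hab hap hac had hbp hbc hbd hpc hpd hcd
  rw [← h5]
  exact Subgroup.orderOf_dvd_natCard K (K.mul_mem e1 e2)

theorem lemS4 : Cfsg.Agent.Lib.Helper73.HA.LemS4.{u} := by
  intro Ω _ _ K s h8 hs h5 h3 g hg
  have hK3 : Has3 K s := fun a b c ha hb hc hab hac hbc => h3 a b c ha hb hc hab hac hbc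
  set t := s.image g with ht
  have htcard : t.card = 4 := by rw [ht, Finset.card_image_of_injective _ g.injective, hs]
  have hmem : ∀ x, g x ∈ t ↔ x ∈ s := by
    intro x
    rw [ht, Finset.mem_image]
    constructor
    · rintro ⟨y, hy, hxy⟩
      rwa [← g.injective hxy]
    · intro hx
      exact ⟨x, hx, rfl⟩
  have hK3t : Has3 K t := has3_image hK3 hg
  by_cases hst : t = s
  · left
    intro x
    rw [← hmem x, hst]
  by_cases hdisj : Disjoint s t
  · right
    have htc : t = sᶜ := by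
      apply Finset.eq_of_subset_of_card_le
      · intro x hx
        rw [Finset.mem_compl]
        intro hxs
        exact Finset.disjoint_left.1 hdisj hxs hx
      · rw [Finset.card_compl, h8, hs, htcard]
    intro x
    have h := hmem x
    rw [htc, Finset.mem_compl] at h
    tauto
  · exfalso
    obtain ⟨p, hps, hpt⟩ := Finset.not_disjoint_iff.1 hdisj
    have ha : ∃ a ∈ s, a ∉ t := by
      by_contra hcon
      push_neg at hcon
      exact hst (Finset.eq_of_subset_of_card_le hcon (by rw [hs, htcard])).symm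
    have hc : ∃ c ∈ t, c ∉ s := by
      by_contra hcon
      push_neg at hcon
      exact hst (Finset.eq_of_subset_of_card_le hcon (by rw [hs, htcard]))
    obtain ⟨a, has, hat⟩ := ha
    obtain ⟨c, hct, hcs⟩ := hc
    obtain ⟨d, hdt, hd⟩ := Finset.exists_mem_notMem_of_card_lt_card (s := {p, c}) (t := t)
      (lt_of_le_of_lt Finset.card_le_two (by rw [htcard]; norm_num))
    obtain ⟨b, hbs, hb⟩ := Finset.exists_mem_notMem_of_card_lt_card (s := {p, a, d}) (t := s)
      (lt_of_le_of_lt Finset.card_le_three (by rw [hs]; norm_num))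
    simp only [Finset.mem_insert, Finset.mem_singleton, not_or] at hd hb
    have hap : a ≠ p := fun e => hat (e ▸ hpt)
    have hac : a ≠ c := fun e => hcs (e ▸ has)
    have had : a ≠ d := fun e => hat (e ▸ hdt)
    have hbc : b ≠ c := fun e => hcs (e ▸ hbs)
    have hpc : p ≠ c := fun e => hcs (e ▸ hps)
    exact h5 (five_dvd_of_has3 hK3 hK3t has hbs hps hpt hct hdt (Ne.symm hb.2.1) hap hac had
      hb.1 hbc hb.2.2 hpc (Ne.symm hd.1) (Ne.symm hd.2))

theorem lemS5 : Cfsg.Agent.Lib.Helper73.HA.LemS5.{u} := by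
  intro Ω _ _ K ω E h9 hE hωE h5 h3 g hg
  by_contra hgω
  set E' : Finset Ω := (Finset.univ.erase ω) \ E with hE'def
  have hmemE' : ∀ x, x ∈ E' ↔ x ≠ ω ∧ x ∉ E := by
    intro x
    simp [hE'def]
  have hE'card : E'.card = 4 := by
    have hsub : E ⊆ Finset.univ.erase ω := by
      intro x hx
      rw [Finset.mem_erase]
      exact ⟨fun e => hωE (e ▸ hx), Finset.mem_univ _⟩
    rw [hE'def, Finset.card_sdiff_of_subset hsub, Finset.card_erase_of_mem (Finset.mem_univ _),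
      Finset.card_univ, h9, hE]
  have hωE' : ω ∉ E' := by
    intro h
    exact ((hmemE' ω).1 h).1 rfl
  have hKE : Has3 K E := fun a b c ha hb hc hab hac hbc =>
    h3 a b c (fun e => hωE (e ▸ ha)) (fun e => hωE (e ▸ hb)) (fun e => hωE (e ▸ hc)) hab hac hbc
      (Or.inl ⟨ha, hb, hc⟩)
  have hKE' : Has3 K E' := fun a b c ha hb hc hab hac hbc =>
    h3 a b c ((hmemE' a).1 ha).1 ((hmemE' b).1 hb).1 ((hmemE' c).1 hc).1 hab hac hbc
      (Or.inr ⟨((hmemE' a).1 ha).2, ((hmemE' b).1 hb).2, ((hmemE' c).1 hc).2⟩)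
  set y := g⁻¹ ω with hy
  have hgy : g y = ω := by simp [hy]
  have hyω : y ≠ ω := by
    intro e
    rw [e] at hgy
    exact hgω hgy
  obtain ⟨F, hyF, hFcard, hKF⟩ : ∃ F : Finset Ω, y ∈ F ∧ F.card = 4 ∧ Has3 K F := by
    by_cases hyE : y ∈ E
    · exact ⟨E, hyE, hE, hKE⟩
    · exact ⟨E', (hmemE' y).2 ⟨hyω, hyE⟩, hE'card, hKE'⟩
  set T := F.image g with hT
  have hTcard : T.card = 4 := by rw [hT, Finset.card_image_of_injective _ g.injective, hFcard]
  have hωT : ω ∈ T := Finset.mem_image.2 ⟨y, hyF, hgy⟩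
  have hKT : Has3 K T := has3_image hKF hg
  obtain ⟨a, haT, ha⟩ := Finset.exists_mem_notMem_of_card_lt_card (s := {ω}) (t := T)
    (by rw [hTcard, Finset.card_singleton]; norm_num)
  obtain ⟨c, hcT, hc⟩ := Finset.exists_mem_notMem_of_card_lt_card (s := {ω, a}) (t := T)
    (lt_of_le_of_lt Finset.card_le_two (by rw [hTcard]; norm_num))
  simp only [Finset.mem_insert, Finset.mem_singleton, not_or] at ha hc
  obtain ⟨F₂, haF₂, hF₂card, hKF₂, hωF₂⟩ :
      ∃ F₂ : Finset Ω, a ∈ F₂ ∧ F₂.card = 4 ∧ Has3 K F₂ ∧ ω ∉ F₂ := by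
    by_cases haE : a ∈ E
    · exact ⟨E, haE, hE, hKE, hωE⟩
    · exact ⟨E', (hmemE' a).2 ⟨ha, haE⟩, hE'card, hKE', hωE'⟩
  obtain ⟨e₁, he₁F, he₁⟩ := Finset.exists_mem_notMem_of_card_lt_card (s := {a, c}) (t := F₂)
    (lt_of_le_of_lt Finset.card_le_two (by rw [hF₂card]; norm_num))
  obtain ⟨e₂, he₂F, he₂⟩ := Finset.exists_mem_notMem_of_card_lt_card (s := {a, c, e₁}) (t := F₂)
    (lt_of_le_of_lt Finset.card_le_three (by rw [hF₂card]; norm_num))
  simp only [Finset.mem_insert, Finset.mem_singleton, not_or] at he₁ he₂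
  have h1ω : e₁ ≠ ω := fun e => hωF₂ (e ▸ he₁F)
  have h2ω : e₂ ≠ ω := fun e => hωF₂ (e ▸ he₂F)
  exact h5 (five_dvd_of_has3 hKF₂ hKT he₁F he₂F haF₂ haT hcT hωT (Ne.symm he₂.2.2) he₁.1 he₁.2
    h1ω he₂.1 he₂.2.1 h2ω (Ne.symm hc.2) ha hc.1)

end Cfsg.Agent.Lib.Helper13.HA
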